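import Cfsg.Agent.H811.CoOneThree
import Cfsg.Agent.LThreeCo1Suz.Main

/-!
# `C(X 0)` is quasisimple and `C(X 0) / ⟨X 0⟩ ≅ Suz` in `Co₁`, transported along an isomorphism
-/

set_option autoImplicit false
open Cfsg

namespace Cfsg.Agent.H811.CoOneThreeMain

open Cfsg.Spor (Co1)
open Subgroup
open Cfsg.Agent.LThreeCo1.FourCo1 (X)

/-- quasisimplicity of a central extension of a nonabelian simple group -/
theorem quasisimple_of {H : Type*} [Group H] {E : Subgroup H} [E.Normal] (hE : E ≤ center H)
    (hs : IsSimpleGroup (H ⧸ E)) (hnc : ¬ IsMulCommutative (H ⧸ E)) (hEc : E ≤ commutator H) :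
    IsQuasisimple H := by
  have hcen : center (H ⧸ E) = ⊥ := by
    rcases hs.eq_bot_or_eq_top_of_normal (center (H ⧸ E)) inferInstance with h | h
    · exact h
    · exfalso
      apply hnc
      refine ⟨⟨fun a b => ?_⟩⟩
      have ha : b ∈ center (H ⧸ E) := by rw [h]; exact mem_top b
      exact mem_center_iff.1 ha a
  have hZ : center H = E := by
    apply le_antisymm _ hE
    intro z hz
    have h1 : (QuotientGroup.mk' E z) ∈ center (H ⧸ E) := by
      rw [mem_center_iff]
      intro g
      obtain ⟨g, rfl⟩ := QuotientGroup.mk'_surjective E g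
      rw [← map_mul, mem_center_iff.1 hz g, map_mul]
    rw [hcen, mem_bot] at h1
    exact (QuotientGroup.eq_one_iff z).1 h1
  refine ⟨?_, ?_⟩
  · rw [Group.isPerfect_def]
    have h1 : (commutator H).map (QuotientGroup.mk' E) = ⊤ := by
      have hn : ((commutator H).map (QuotientGroup.mk' E)).Normal :=
        Subgroup.Normal.map inferInstance _ (QuotientGroup.mk'_surjective E)
      rcases hs.eq_bot_or_eq_top_of_normal _ hn with h | h
      · exfalso
        apply hnc
        refine ⟨⟨fun a b => ?_⟩⟩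
        obtain ⟨a, rfl⟩ := QuotientGroup.mk'_surjective E a
        obtain ⟨b, rfl⟩ := QuotientGroup.mk'_surjective E b
        have h2 : QuotientGroup.mk' E (a * b * a⁻¹ * b⁻¹) ∈ (commutator H).map (QuotientGroup.mk' E) :=
          mem_map_of_mem _ (commutator_mem_commutator (mem_top a) (mem_top b))
        rw [h, mem_bot, map_mul, map_mul, map_mul, map_inv, map_inv, mul_inv_eq_one, mul_inv_eq_iff_eq_mul] at h2
        exact h2
      · exact h
    rw [eq_top_iff]
    intro g _
    have h2 : QuotientGroup.mk' E g ∈ (commutator H).map (QuotientGroup.mk' E) := by rw [h1]; exact mem_top _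
    obtain ⟨c, hc, hcg⟩ := h2
    have h3 : c⁻¹ * g ∈ E := QuotientGroup.eq.1 hcg
    have h4 : g = c * (c⁻¹ * g) := by group
    rw [h4]
    exact mul_mem hc (hEc h3)
  · exact (QuotientGroup.quotientMulEquivOfEq hZ).isSimpleGroup

theorem not_comm_suz {A : Type*} [Group A] (h : Spor.IsoSuz A) : ¬ IsMulCommutative A := by
  obtain ⟨f⟩ := h
  intro hc
  have hs : IsSimpleGroup Cfsg.Spor.Suz := Cfsg.Agent.SporadicRecognition.SuzOrder.simple
  have hcard := Cfsg.Agent.SporadicRecognition.SuzOrder.card_Suz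
  have hfin : Finite Cfsg.Spor.Suz := Nat.finite_of_card_ne_zero (by rw [hcard]; norm_num)
  let _ : CommGroup Cfsg.Spor.Suz :=
    { (inferInstance : Group Cfsg.Spor.Suz) with
      mul_comm := fun a b => by
        apply f.symm.injective
        rw [map_mul, map_mul]
        exact hc.is_comm.comm _ _ }
  have hp : (Nat.card Cfsg.Spor.Suz).Prime := IsSimpleGroup.prime_card
  rw [hcard] at hp
  revert hp; norm_num

theorem simple_suz {A : Type*} [Group A] (h : Spor.IsoSuz A) : IsSimpleGroup A := by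
  obtain ⟨f⟩ := h
  have hs : IsSimpleGroup Cfsg.Spor.Suz := Cfsg.Agent.SporadicRecognition.SuzOrder.simple
  exact f.isSimpleGroup

/-- `X 0` lies in the commutator subgroup of its centralizer -/
theorem mem_comm : (⟨X 0, mem_centralizer_singleton_iff.2 rfl⟩ : ↥(centralizer ({X 0} : Set Co1))) ∈
    commutator ↥(centralizer ({X 0} : Set Co1)) := by
  have hn : (commutator ↥(centralizer ({X 0} : Set Co1))).Normal := commutator_normal ⊤ ⊤
  have h := LThreeCo1Suz.Full.one_mem (commutator ↥(centralizer ({X 0} : Set Co1))) hn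
    (fun y g _ => commutator_mem_commutator (mem_top g) (mem_top y))
  have h1 : (LThreeCo1Suz.Full.el 1 : ↥(centralizer ({X 0} : Set Co1))) =
      ⟨X 0, mem_centralizer_singleton_iff.2 rfl⟩ := Subtype.ext (LThreeCo1Suz.Full.el_val rfl)
  exact h1 ▸ h

/-- the statement, for a subgroup `X` of `G` mapped to `⟨X 0⟩` -/
theorem main_of {G : Type*} [Group G] (ψ : G ≃* Co1) (Xs : Subgroup G)
    (hψ : Xs.map ψ.toMonoidHom = zpowers (X 0))
    [(Xs.subgroupOf (centralizer (Xs : Set G))).Normal] :
    IsQuasisimple ↥(centralizer (Xs : Set G)) ∧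
      Spor.IsoSuz (↥(centralizer (Xs : Set G)) ⧸ Xs.subgroupOf (centralizer (Xs : Set G))) := by
  have hcen : (centralizer (Xs : Set G)).map ψ.toMonoidHom = centralizer ({X 0} : Set Co1) := by
    ext c
    rw [mem_map, mem_centralizer_singleton_iff]
    constructor
    · rintro ⟨d, hd, rfl⟩
      have hX : X 0 ∈ Xs.map ψ.toMonoidHom := by rw [hψ]; exact mem_zpowers _
      obtain ⟨x, hx, hx0⟩ := hX
      rw [← hx0]
      show ψ d * ψ x = ψ x * ψ d
      rw [← map_mul, ← map_mul]
      rw [mem_centralizer_iff.1 hd x hx]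
    · intro h
      refine ⟨ψ.symm c, ?_, ψ.apply_symm_apply c⟩
      rw [mem_centralizer_iff]
      intro y hy
      have h1 : ψ y ∈ zpowers (X 0) := by rw [← hψ]; exact ⟨y, hy, rfl⟩
      obtain ⟨k, hk⟩ := mem_zpowers_iff.1 h1
      apply ψ.injective
      rw [map_mul, map_mul, ψ.apply_symm_apply, ← hk]
      exact ((show Commute c (X 0) from h).zpow_right k).eq.symm
  let ε : ↥(centralizer (Xs : Set G)) ≃* ↥(centralizer ({X 0} : Set Co1)) :=
    ((centralizer (Xs : Set G)).equivMapOfInjective ψ.toMonoidHom ψ.injective).trans (MulEquiv.subgroupCongr hcen)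
  have hε : ∀ n, (ε n : Co1) = ψ n := fun n => rfl
  have hmap : (Xs.subgroupOf (centralizer (Xs : Set G))).map (ε : _ →* ↥(centralizer ({X 0} : Set Co1))) =
      LThreeCo1Suz.Main.EE := by
    ext n
    rw [LThreeCo1Suz.Main.mem_EE, ← hψ]
    constructor
    · rintro ⟨m, hm, rfl⟩
      exact ⟨m, mem_subgroupOf.1 hm, rfl⟩
    · rintro ⟨y, hy, hyn⟩
      have hn : (n : Co1) ∈ (centralizer (Xs : Set G)).map ψ.toMonoidHom := by
        rw [hcen]; exact n.2
      obtain ⟨m, hm, hmn⟩ := hn
      have hym : y = m := ψ.injective (hyn.trans hmn.symm)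
      subst hym
      exact ⟨⟨y, hm⟩, mem_subgroupOf.2 hy, Subtype.ext hmn⟩
  let q : (↥(centralizer (Xs : Set G)) ⧸ Xs.subgroupOf (centralizer (Xs : Set G))) ≃*
      (↥(centralizer ({X 0} : Set Co1)) ⧸ LThreeCo1Suz.Main.EE) := QuotientGroup.congr _ _ ε hmap
  obtain ⟨f⟩ := LThreeCo1Suz.Main.isoSuz_X
  have hiso : Spor.IsoSuz (↥(centralizer (Xs : Set G)) ⧸ Xs.subgroupOf (centralizer (Xs : Set G))) :=
    ⟨q.trans f⟩
  refine ⟨quasisimple_of (E := Xs.subgroupOf (centralizer (Xs : Set G))) ?_ (simple_suz hiso) (not_comm_suz hiso) ?_,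
    hiso⟩
  · intro y hy
    rw [mem_center_iff]
    intro g
    apply Subtype.ext
    exact (mem_centralizer_iff.1 g.2 y (mem_subgroupOf.1 hy)).symm
  · intro y hy
    have h1 : ε y ∈ commutator ↥(centralizer ({X 0} : Set Co1)) := by
      have h2 : (ε y : Co1) ∈ zpowers (X 0) := by rw [← hψ]; exact ⟨y, mem_subgroupOf.1 hy, rfl⟩
      obtain ⟨k, hk⟩ := mem_zpowers_iff.1 h2
      have h3 : ε y = (⟨X 0, mem_centralizer_singleton_iff.2 rfl⟩ : ↥(centralizer ({X 0} : Set Co1))) ^ k :=
        Subtype.ext (by rw [SubgroupClass.coe_zpow]; exact hk.symm)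
      rw [h3]
      exact zpow_mem mem_comm k
    have h2 : (commutator ↥(centralizer (Xs : Set G))).map ε.toMonoidHom =
        commutator ↥(centralizer ({X 0} : Set Co1)) := by
      rw [_root_.commutator_def, _root_.commutator_def, map_commutator, ← MonoidHom.range_eq_map,
        MonoidHom.range_eq_top.2 ε.surjective]
    rw [← h2] at h1
    obtain ⟨y', hy', hyy⟩ := h1
    have : y' = y := ε.injective hyy
    rw [← this]; exact hy'

end Cfsg.Agent.H811.CoOneThreeMain
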