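import Cfsg.Agent.H811.CovLem
import Cfsg.Agent.H811.CoOneThreeMain

/-!
# Centralizers and normalizers of subgroups of order three (helper811)

* `main_of` : `C(Y)` is quasisimple with `C(Y) / Y ≅ P`, from `Cov P u`;
* `relIndex_of` : `|N(Y) : C(Y)| = 2` if `u` has order three and is inverted by some element.
-/

set_option autoImplicit false

namespace Cfsg.Agent.H811.CovMain

open Subgroup Cfsg
open Cfsg.Agent.H811.CovLem
open Cfsg.Agent.H811.CoOneThreeMain (quasisimple_of)

variable {P G G' : Type*} [Group P] [Group G] [Group G']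

/-- the generator of `Y` -/
theorem exists_gen (ψ : G ≃* G') {u : G'} {Y : Subgroup G} (hψ : Y.map ψ.toMonoidHom = zpowers u) :
    ∃ y : G, ψ y = u ∧ Y = zpowers y := by
  refine ⟨ψ.symm u, ψ.apply_symm_apply u, ?_⟩
  ext g
  constructor
  · intro hg
    have h1 : ψ g ∈ zpowers u := by rw [← hψ]; exact ⟨g, hg, rfl⟩
    obtain ⟨k, hk⟩ := mem_zpowers_iff.1 h1
    rw [mem_zpowers_iff]
    exact ⟨k, ψ.injective (by rw [map_zpow, ψ.apply_symm_apply, hk])⟩
  · intro hg
    obtain ⟨k, hk⟩ := mem_zpowers_iff.1 hg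
    have h1 : u ∈ Y.map ψ.toMonoidHom := by rw [hψ]; exact mem_zpowers u
    obtain ⟨y, hy, hyu⟩ := h1
    have h2 : ψ.symm u = y := by
      rw [← hyu]; exact ψ.symm_apply_apply y
    rw [← hk, h2]
    exact zpow_mem hy k

theorem mem_cent {y : G} {c : G} : c ∈ centralizer ((zpowers y : Subgroup G) : Set G) ↔ c * y = y * c := by
  rw [mem_centralizer_iff]
  constructor
  · intro h
    exact (h y (mem_zpowers y)).symm
  · intro h x hx
    obtain ⟨k, hk⟩ := mem_zpowers_iff.1 hx
    rw [← hk]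
    exact ((show Commute c y from h).zpow_right k).eq.symm

/-- **The structure of `C(Y)`.** -/
theorem main_of (ψ : G ≃* G') {u : G'} {Y : Subgroup G} (hψ : Y.map ψ.toMonoidHom = zpowers u) (hc : Cov P u)
    (hs : IsSimpleGroup P) (hnc : ¬ IsMulCommutative P)
    (hcom : (⟨u, mem_centralizer_singleton_iff.2 rfl⟩ : ↥(centralizer ({u} : Set G'))) ∈
      commutator ↥(centralizer ({u} : Set G')))
    [(Y.subgroupOf (centralizer (Y : Set G))).Normal] :
    IsQuasisimple ↥(centralizer (Y : Set G)) ∧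
      Nonempty (↥(centralizer (Y : Set G)) ⧸ Y.subgroupOf (centralizer (Y : Set G)) ≃* P) := by
  obtain ⟨y, hy, rfl⟩ := exists_gen ψ hψ
  have hcy : ∀ c : ↥(centralizer ((zpowers y : Subgroup G) : Set G)), (c : G) * y = y * c := fun c => mem_cent.1 c.2
  let ε : ↥(centralizer ((zpowers y : Subgroup G) : Set G)) ≃* ↥(centralizer ({u} : Set G')) :=
    { toFun := fun c => ⟨ψ c, mem_centralizer_singleton_iff.2 (by
        rw [← hy, ← map_mul, ← map_mul, hcy c])⟩
      invFun := fun c => ⟨ψ.symm c, mem_cent.2 (by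
        have h := mem_centralizer_singleton_iff.1 c.2
        apply ψ.injective
        rw [map_mul, map_mul, ψ.apply_symm_apply, hy, h])⟩
      left_inv := fun c => Subtype.ext (ψ.symm_apply_apply _)
      right_inv := fun c => Subtype.ext (ψ.apply_symm_apply _)
      map_mul' := fun a b => Subtype.ext (map_mul ψ _ _) }
  obtain ⟨g, hgs, hgk⟩ := hc
  have hker : (g.comp ε.toMonoidHom).ker = (zpowers y).subgroupOf (centralizer ((zpowers y : Subgroup G) : Set G)) := by
    ext c
    rw [MonoidHom.mem_ker, mem_subgroupOf]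
    show g (ε c) = 1 ↔ _
    rw [hgk]
    show ψ (c : G) ∈ zpowers u ↔ _
    rw [← hy, mem_zpowers_iff, mem_zpowers_iff]
    constructor
    · rintro ⟨k, hk⟩
      exact ⟨k, ψ.injective (by rw [map_zpow, hk])⟩
    · rintro ⟨k, hk⟩
      exact ⟨k, by rw [← hk, map_zpow]⟩
  have q : ↥(centralizer ((zpowers y : Subgroup G) : Set G)) ⧸
      (zpowers y).subgroupOf (centralizer ((zpowers y : Subgroup G) : Set G)) ≃* P :=
    (QuotientGroup.quotientMulEquivOfEq hker.symm).trans
      (QuotientGroup.quotientKerEquivOfSurjective (g.comp ε.toMonoidHom) (hgs.comp ε.surjective))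
  have hs' : IsSimpleGroup (↥(centralizer ((zpowers y : Subgroup G) : Set G)) ⧸
      (zpowers y).subgroupOf (centralizer ((zpowers y : Subgroup G) : Set G))) := q.isSimpleGroup
  refine ⟨quasisimple_of (E := (zpowers y).subgroupOf (centralizer ((zpowers y : Subgroup G) : Set G))) ?_ hs' ?_ ?_, ⟨q⟩⟩
  · intro x hx
    rw [mem_center_iff]
    intro c
    apply Subtype.ext
    exact (mem_centralizer_iff.1 c.2 x (mem_subgroupOf.1 hx)).symm
  · intro h
    apply hnc
    refine ⟨⟨fun a b => ?_⟩⟩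
    have h1 := h.is_comm.comm (q.symm a) (q.symm b)
    have h2 := congrArg q h1
    rwa [map_mul, map_mul, q.apply_symm_apply, q.apply_symm_apply] at h2
  · intro x hx
    have h1 : ε x ∈ commutator ↥(centralizer ({u} : Set G')) := by
      have h2 : (ε x : G') ∈ zpowers u := by
        rw [← hψ]; exact ⟨x, mem_subgroupOf.1 hx, rfl⟩
      obtain ⟨k, hk⟩ := mem_zpowers_iff.1 h2
      have h3 : ε x = (⟨u, mem_centralizer_singleton_iff.2 rfl⟩ : ↥(centralizer ({u} : Set G'))) ^ k :=
        Subtype.ext (by rw [SubgroupClass.coe_zpow]; exact hk.symm)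
      rw [h3]
      exact zpow_mem hcom k
    have h2 : (commutator ↥(centralizer ((zpowers y : Subgroup G) : Set G))).map ε.toMonoidHom =
        commutator ↥(centralizer ({u} : Set G')) := by
      rw [_root_.commutator_def, _root_.commutator_def, map_commutator, ← MonoidHom.range_eq_map,
        MonoidHom.range_eq_top.2 ε.surjective]
    rw [← h2] at h1
    obtain ⟨x', hx', hxx⟩ := h1
    have : x' = x := ε.injective hxx
    rw [← this]; exact hx'

/-- elements of `⟨y⟩`, `y` of order three -/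
theorem mem_three {y x : G} (h3 : orderOf y = 3) (hx : x ∈ zpowers y) : x = 1 ∨ x = y ∨ x = y⁻¹ := by
  obtain ⟨k, hk⟩ := mem_zpowers_iff.1 hx
  have hy3 : y ^ (3 : ℤ) = 1 := by
    have := pow_orderOf_eq_one y
    rw [h3] at this
    exact_mod_cast this
  have hmod : y ^ k = y ^ (k % 3) := by
    conv_lhs => rw [← Int.emod_add_mul_ediv k 3]
    rw [zpow_add, zpow_mul, hy3, one_zpow, mul_one]
  have hr : k % 3 = 0 ∨ k % 3 = 1 ∨ k % 3 = 2 := by omega
  rcases hr with hr | hr | hr
  · left; rw [← hk, hmod, hr, zpow_zero]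
  · right; left; rw [← hk, hmod, hr, zpow_one]
  · right; right
    rw [← hk, hmod, hr, eq_inv_iff_mul_eq_one, ← zpow_add_one]
    exact hy3

theorem ne_inv {y : G} (h3 : orderOf y = 3) : y ≠ y⁻¹ := by
  intro h
  have h1 : y ^ 2 = 1 := by
    rw [pow_two]
    calc y * y = y * y⁻¹ := by rw [← h]
      _ = 1 := mul_inv_cancel y
  have h2 := orderOf_dvd_of_pow_eq_one h1
  rw [h3] at h2
  norm_num at h2

/-- **`|N(Y) : C(Y)| = 2`.** -/
theorem relIndex_of (ψ : G ≃* G') {u : G'} {Y : Subgroup G} (hψ : Y.map ψ.toMonoidHom = zpowers u)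
    (h3 : orderOf u = 3) {w : G'} (hw : w * u * w⁻¹ = u⁻¹) :
    (centralizer (Y : Set G)).relIndex (normalizer (Y : Set G)) = 2 := by
  obtain ⟨y, hy, rfl⟩ := exists_gen ψ hψ
  have hy3 : orderOf y = 3 := by rw [← MulEquiv.orderOf_eq ψ y, hy, h3]
  have hne := ne_inv hy3
  have ha : ψ.symm w * y * (ψ.symm w)⁻¹ = y⁻¹ := by
    apply ψ.injective
    rw [map_mul, map_mul, map_inv, map_inv, ψ.apply_symm_apply, hy, hw]
  have hc1 : ∀ b : G, b ∈ centralizer ((zpowers y : Subgroup G) : Set G) ↔ b * y * b⁻¹ = y := by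
    intro b
    rw [mem_cent, mul_inv_eq_iff_eq_mul]
  have hn : ∀ b : G, (b * y * b⁻¹ = y ∨ b * y * b⁻¹ = y⁻¹) → b ∈ normalizer ((zpowers y : Subgroup G) : Set G) := by
    intro b hb
    have key : (zpowers y).map (MulAut.conj b).toMonoidHom = zpowers y := by
      rw [MonoidHom.map_zpowers]
      show zpowers (b * y * b⁻¹) = zpowers y
      rcases hb with hb | hb
      · rw [hb]
      · rw [hb, zpowers_inv]
    rw [mem_normalizer_iff]
    intro x
    constructor
    · intro hx
      have : b * x * b⁻¹ ∈ (zpowers y).map (MulAut.conj b).toMonoidHom := ⟨x, hx, rfl⟩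
      rwa [key] at this
    · intro hx
      rw [← key] at hx
      obtain ⟨x', hx', he⟩ := hx
      have h1 : b * x' * b⁻¹ = b * x * b⁻¹ := he
      have h2 : x' = x := mul_left_cancel (mul_right_cancel h1)
      rw [← h2]; exact hx'
  rw [relIndex_eq_two_iff]
  refine ⟨ψ.symm w, hn _ (Or.inr ha), fun b hb => ?_⟩
  have hb1 : b * y * b⁻¹ ∈ zpowers y := (mem_normalizer_iff.1 hb y).1 (mem_zpowers y)
  have hb2 : b * y * b⁻¹ ≠ 1 := by
    intro h
    have h4 : y = 1 := by
      calc y = b⁻¹ * (b * y * b⁻¹) * b := by group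
        _ = 1 := by rw [h]; group
    rw [h4, orderOf_one] at hy3
    norm_num at hy3
  have hba : b * ψ.symm w * y * (b * ψ.symm w)⁻¹ = (b * y * b⁻¹)⁻¹ := by
    calc b * ψ.symm w * y * (b * ψ.symm w)⁻¹ = b * (ψ.symm w * y * (ψ.symm w)⁻¹) * b⁻¹ := by group
      _ = (b * y * b⁻¹)⁻¹ := by rw [ha]; group
  rcases mem_three hy3 hb1 with h4 | h4 | h4
  · exact absurd h4 hb2
  · right
    refine ⟨(hc1 b).2 h4, fun h5 => ?_⟩
    have h6 := (hc1 _).1 h5
    rw [hba, h4] at h6
    exact hne h6.symm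
  · left
    refine ⟨(hc1 _).2 (by rw [hba, h4, inv_inv]), fun h5 => ?_⟩
    have h6 := (hc1 _).1 h5
    rw [h4] at h6
    exact hne h6.symm

end Cfsg.Agent.H811.CovMain
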